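import Cfsg.Agent.H954.FieldSub
set_option linter.all false

/-!
# Elements normalising a field subalgebra (helper954)

* `frob_case`, `comm_case`, `split_case` : constructions of copies of `L` normalised by an endomorphism;
* `eq_smul_of_two_le` , `even_case` : elements of the normaliser with a large eigenspace.
-/

set_option autoImplicit false

namespace Cfsg.Agent.H954.FieldSub

open Module Polynomial

section Constr

variable {F L V W : Type*} [Field F] [Field L] [Algebra F L] [AddCommGroup V] [Module F V]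
  [AddCommGroup W] [Module F W]

/-- transport of an action -/
def transport (e : V ≃ₗ[F] W) (χ : L →ₐ[F] Module.End F W) : L →ₐ[F] Module.End F V :=
  (e.symm.conjAlgEquiv F).toAlgHom.comp χ

theorem transport_apply (e : V ≃ₗ[F] W) (χ : L →ₐ[F] Module.End F W) (a : L) (v : V) :
    transport e χ a v = e.symm (χ a (e v)) := rfl

/-- An endomorphism with the minimal polynomial of the Frobenius map normalises a copy of `L`. -/
theorem frob_case [FiniteDimensional F V] [Fintype F] [Finite L] (x : Module.End F V)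
    (hn : finrank F V = finrank F L) (hx : minpoly F x = X ^ finrank F L - 1) :
    ∃ (ψ : L →ₐ[F] Module.End F V) (τ : L → L), ∀ a v, x (ψ a v) = ψ (τ a) (x v) := by
  have hfL : FiniteDimensional F L := Module.Finite.of_finite
  have h1 : minpoly F x = minpoly F (FiniteField.frobeniusAlgHom F L).toLinearMap := by
    rw [hx, FiniteField.minpoly_frobeniusAlgHom]
  have hd : (X ^ finrank F L - 1 : F[X]).natDegree = finrank F L := natDegree_X_pow_sub_C (r := 1)
  obtain ⟨e, he⟩ := exists_equiv_minpoly x (FiniteField.frobeniusAlgHom F L).toLinearMap h1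
    (by rw [hx, hd, hn]) (by rw [← h1, hx, hd])
  refine ⟨transport e (Algebra.lmul F L), fun a => a ^ Fintype.card F, fun a v => ?_⟩
  rw [transport_apply, transport_apply]
  apply e.injective
  rw [he, e.apply_symm_apply, e.apply_symm_apply, he]
  simp only [Algebra.coe_lmul_eq_mul, LinearMap.mul_apply_apply, AlgHom.toLinearMap_apply, map_mul]
  rfl

/-- An endomorphism with irreducible minimal polynomial commutes with a copy of `L`. -/
theorem comm_case [FiniteDimensional F V] [Fintype F] [Finite L] (x : Module.End F V)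
    (hirr : Irreducible (minpoly F x)) (hd : finrank F L ∣ (minpoly F x).natDegree) :
    ∃ (ψ : L →ₐ[F] Module.End F V) (τ : L → L), ∀ a v, x (ψ a v) = ψ (τ a) (x v) := by
  have : Fact (Irreducible (minpoly F x)) := ⟨hirr⟩
  have hm : (minpoly F x).Monic := minpoly.monic (Algebra.IsIntegral.isIntegral x)
  have := hm.finite_adjoinRoot
  have : Finite (AdjoinRoot (minpoly F x)) := Module.finite_of_finite F
  have hd' : finrank F L ∣ finrank F (AdjoinRoot (minpoly F x)) := by
    have h1 : finrank F (AdjoinRoot (minpoly F x)) = (minpoly F x).natDegree :=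
      finrank_quotient_span_eq_natDegree
    rw [h1]; exact hd
  obtain ⟨g⟩ := FiniteField.nonempty_algHom_of_finrank_dvd (F := F) (K := L) hd'
  let χ : AdjoinRoot (minpoly F x) →ₐ[F] Module.End F V :=
    Ideal.Quotient.liftₐ (Ideal.span {minpoly F x}) (aeval x) (by
      intro a ha
      obtain ⟨b, rfl⟩ := Ideal.mem_span_singleton.1 ha
      rw [map_mul, minpoly.aeval, zero_mul])
  have hχ : χ (AdjoinRoot.root (minpoly F x)) = x := by
    have : χ (AdjoinRoot.root (minpoly F x)) = aeval x (X : F[X]) := rfl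
    rw [this, aeval_X]
  refine ⟨χ.comp g, id, fun a v => ?_⟩
  have h2 : χ (AdjoinRoot.root (minpoly F x)) * χ (g a) = χ (g a) * χ (AdjoinRoot.root (minpoly F x)) := by
    rw [← map_mul, ← map_mul, mul_comm]
  rw [hχ] at h2
  exact congrFun (congrArg DFunLike.coe h2) v

/-- An endomorphism acting as scalars on two complementary subspaces of suitable dimension commutes
with a copy of `L`. -/
theorem split_case [FiniteDimensional F V] [FiniteDimensional F L] (x : Module.End F V)
    (W W' : Submodule F V) (hc : IsCompl W W') (hW : finrank F L ∣ finrank F W)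
    (hW' : finrank F L ∣ finrank F W') (c c' : F) (h : ∀ v ∈ W, x v = c • v) (h' : ∀ v ∈ W', x v = c' • v) :
    ∃ (ψ : L →ₐ[F] Module.End F V) (τ : L → L), ∀ a v, x (ψ a v) = ψ (τ a) (x v) := by
  obtain ⟨m, hm⟩ := hW
  obtain ⟨m', hm'⟩ := hW'
  have e1 : W ≃ₗ[F] (Fin m → L) := LinearEquiv.ofFinrankEq _ _ (by
    rw [hm, Module.finrank_pi_fintype]; simp [mul_comm])
  have e2 : W' ≃ₗ[F] (Fin m' → L) := LinearEquiv.ofFinrankEq _ _ (by
    rw [hm', Module.finrank_pi_fintype]; simp [mul_comm])
  let e : V ≃ₗ[F] (Fin m → L) × (Fin m' → L) :=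
    (Submodule.prodEquivOfIsCompl W W' hc).symm.trans (e1.prodCongr e2)
  have hes : ∀ p, e.symm p = (e1.symm p.1 : V) + (e2.symm p.2 : V) := fun p => rfl
  have hx : ∀ p, x (e.symm p) = e.symm (c • p.1, c' • p.2) := fun p => by
    rw [hes, hes, map_add, h _ (e1.symm p.1).2, h' _ (e2.symm p.2).2]
    simp
  refine ⟨transport e (Algebra.lsmul F F ((Fin m → L) × (Fin m' → L))), id, fun a v => ?_⟩
  rw [transport_apply, transport_apply, hx]
  obtain ⟨p, rfl⟩ := e.symm.surjective v
  rw [hx, e.apply_symm_apply, e.apply_symm_apply]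
  simp only [Algebra.lsmul_coe, id_eq, Prod.smul_fst, Prod.smul_snd, Prod.smul_mk]
  congr 2
  · rw [smul_comm]
  · rw [smul_comm]

end Constr

section Norm

variable {F L V : Type*} [Field F] [Field L] [Algebra F L] [AddCommGroup V] [Module F V]

/-- If `L` has prime degree, an endomorphism commuting with one element outside `F` commutes with `L`. -/
theorem commute_all (hp : (finrank F L).Prime) (φ : L →ₐ[F] Module.End F V) (y : Module.End F V) (a : L)
    (ha : a ∉ (⊥ : Subalgebra F L)) (h : Commute y (φ a)) (b : L) : Commute y (φ b) := by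
  have := Subalgebra.isSimpleOrder_of_finrank_prime F L hp
  let S : Subalgebra F L := (Subalgebra.centralizer F {y}).comap φ
  have haS : a ∈ S := by
    rw [Subalgebra.mem_comap, Subalgebra.mem_centralizer_iff]
    rintro z rfl
    exact h
  have hS : S = ⊤ := by
    rcases eq_bot_or_eq_top S with h1 | h1
    · rw [h1] at haS; exact absurd haS ha
    · exact h1
  have hb : b ∈ S := by rw [hS]; trivial
  rw [Subalgebra.mem_comap, Subalgebra.mem_centralizer_iff] at hb
  exact hb y rfl

theorem phi_injective (φ : L →ₐ[F] Module.End F V) {a b : L} {v : V} (hv : v ≠ 0)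
    (h : φ a v = φ b v) : a = b := by
  by_contra hab
  have h1 : φ (a - b) v = 0 := by rw [map_sub, LinearMap.sub_apply, h, sub_self]
  have h2 : φ ((a - b)⁻¹) (φ (a - b) v) = v := by
    have : φ ((a - b)⁻¹) * φ (a - b) = 1 := by
      rw [← map_mul, inv_mul_cancel₀ (sub_ne_zero.2 hab), map_one]
    exact congrFun (congrArg DFunLike.coe this) v
  rw [h1, map_zero] at h2
  exact hv h2.symm

/-- On a one-dimensional space, an element of the normaliser with an eigenspace of dimension at least two
is a scalar. -/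
theorem eq_smul_of_two_le (hp : (finrank F L).Prime) (φ : L →ₐ[F] Module.End F V) [FiniteDimensional F V]
    (hdim : finrank F V = finrank F L) (y : Module.End F V) (hy : Function.Injective y)
    (τ : L → L) (hτ : ∀ a v, y (φ a v) = φ (τ a) (y v)) (w : F)
    (h2 : 2 ≤ finrank F (LinearMap.ker (y - w • (1 : Module.End F V)))) : y = w • (1 : Module.End F V) := by
  have hker : ∀ v : V, v ∈ LinearMap.ker (y - w • (1 : Module.End F V)) ↔ y v = w • v := fun v => by
    rw [LinearMap.mem_ker, LinearMap.sub_apply, sub_eq_zero]; rfl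
  obtain ⟨v₁, hv₁, hv₁0⟩ : ∃ v ∈ LinearMap.ker (y - w • (1 : Module.End F V)), v ≠ 0 := by
    by_contra hcon
    push Not at hcon
    have : LinearMap.ker (y - w • (1 : Module.End F V)) = ⊥ := (Submodule.eq_bot_iff _).2 hcon
    rw [this, finrank_bot] at h2
    omega
  obtain ⟨v₂, hv₂, hv₂0⟩ : ∃ v ∈ LinearMap.ker (y - w • (1 : Module.End F V)), v ∉ Submodule.span F {v₁} := by
    by_contra hcon
    push Not at hcon
    have hle : LinearMap.ker (y - w • (1 : Module.End F V)) ≤ Submodule.span F {v₁} := hcon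
    have := Submodule.finrank_mono hle
    rw [finrank_span_singleton hv₁0] at this
    omega
  rw [hker] at hv₁ hv₂
  have h1 : finrank L (VS φ) = 1 := by
    have := finrank_VS φ
    rw [hdim] at this
    have hpos := hp.pos
    exact Nat.eq_of_mul_eq_mul_left hpos (by omega)
  have hgen : ∀ v : V, ∃ a : L, φ a v₁ = v := fun v => by
    let v₁' : VS φ := v₁
    have hv₁' : v₁' ≠ 0 := hv₁0
    obtain ⟨a, ha⟩ := (finrank_eq_one_iff_of_nonzero' v₁' hv₁').1 h1 v
    exact ⟨a, ha⟩
  obtain ⟨a, ha⟩ := hgen v₂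
  have hw : w ≠ 0 := by
    rintro rfl
    apply hv₁0
    apply hy
    rw [hv₁, zero_smul, map_zero]
  have hab : τ a = a := by
    have h3 : y (φ a v₁) = φ (τ a) (y v₁) := hτ a v₁
    rw [ha, hv₂, hv₁, map_smul, ← ha] at h3
    exact (phi_injective φ hv₁0 (smul_right_injective V hw h3)).symm
  have hcomm : Commute y (φ a) := by
    ext v
    show y (φ a v) = φ a (y v)
    rw [hτ, hab]
  have ha' : a ∉ (⊥ : Subalgebra F L) := by
    rw [Algebra.mem_bot]
    rintro ⟨c, rfl⟩
    apply hv₂0
    rw [← ha, AlgHom.commutes, Submodule.mem_span_singleton]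
    exact ⟨c, rfl⟩
  have hall := commute_all hp φ y a ha' hcomm
  ext v
  obtain ⟨b, rfl⟩ := hgen v
  have h4 : y (φ b v₁) = φ b (y v₁) := congrFun (congrArg DFunLike.coe (hall b)) v₁
  rw [h4, hv₁, map_smul]
  rfl

/-- For quadratic `L` and an element of the normaliser with an eigenspace of codimension one,
the dimension is two. -/
theorem codim_one_case (hp : finrank F L = 2) (φ : L →ₐ[F] Module.End F V) [FiniteDimensional F V]
    (y : Module.End F V) (hy : Function.Injective y)
    (τ : L → L) (hτ : ∀ a v, y (φ a v) = φ (τ a) (y v)) (w : F)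
    (h2 : finrank F (LinearMap.ker (y - w • (1 : Module.End F V))) + 1 = finrank F V) : finrank F V = 2 := by
  have hker : ∀ v : V, v ∈ LinearMap.ker (y - w • (1 : Module.End F V)) ↔ y v = w • v := fun v => by
    rw [LinearMap.mem_ker, LinearMap.sub_apply, sub_eq_zero]; rfl
  have hV := finrank_VS φ
  rw [hp] at hV
  by_contra hV2
  set K := LinearMap.ker (y - w • (1 : Module.End F V)) with hK
  obtain ⟨a, ha⟩ : ∃ a : L, a ∉ (⊥ : Subalgebra F L) := by
    by_contra hcon
    push Not at hcon
    have : (⊥ : Subalgebra F L) = ⊤ := by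
      rw [eq_top_iff]; intro a _; exact hcon a
    have h3 := (Subalgebra.bot_eq_top_iff_finrank_eq_one (F := F) (E := L)).1 this
    omega
  have ha0 : a ≠ 0 := by
    rintro rfl; exact ha (Subalgebra.zero_mem _)
  -- the intersection of `K` and `φ(a)⁻¹ K`
  have hinj : Function.Injective (φ a) := by
    intro v v' h
    have h3 : φ (a⁻¹) * φ a = 1 := by rw [← map_mul, inv_mul_cancel₀ ha0, map_one]
    have h4 : ∀ z, φ (a⁻¹) (φ a z) = z := fun z => congrFun (congrArg DFunLike.coe h3) z
    rw [← h4 v, h, h4]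
  have hpos : 0 < finrank F (K ⊓ K.map (φ a) : Submodule F V) := by
    have h3 := Submodule.finrank_sup_add_finrank_inf_eq K (K.map (φ a))
    have h4 : finrank F (K.map (φ a)) = finrank F K :=
      (Submodule.equivMapOfInjective (φ a) hinj K).finrank_eq.symm
    have h5 := Submodule.finrank_le (K ⊔ K.map (φ a))
    omega
  obtain ⟨v₂, hv₂, hv₂0⟩ : ∃ v ∈ (K ⊓ K.map (φ a) : Submodule F V), v ≠ 0 := by
    by_contra hcon
    push Not at hcon
    have : (K ⊓ K.map (φ a) : Submodule F V) = ⊥ := (Submodule.eq_bot_iff _).2 hcon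
    rw [this, finrank_bot] at hpos
    omega
  obtain ⟨hv₂K, v₁, hv₁K, hv₁⟩ := hv₂
  have hv₁0 : v₁ ≠ 0 := by
    rintro rfl; rw [map_zero] at hv₁; exact hv₂0 hv₁.symm
  have hv₂' : y v₂ = w • v₂ := (hker _).1 hv₂K
  have hv₁' : y v₁ = w • v₁ := (hker _).1 hv₁K
  have hw : w ≠ 0 := by
    rintro rfl
    apply hv₁0
    apply hy
    rw [hv₁', zero_smul, map_zero]
  have hab : τ a = a := by
    have h3 : y (φ a v₁) = φ (τ a) (y v₁) := hτ a v₁
    rw [hv₁, hv₂', hv₁', map_smul, ← hv₁] at h3
    exact (phi_injective φ hv₁0 (smul_right_injective V hw h3)).symm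
  have hcomm : Commute y (φ a) := by
    ext v
    show y (φ a v) = φ a (y v)
    rw [hτ, hab]
  have hall := commute_all (by rw [hp]; exact Nat.prime_two) φ y a ha hcomm
  -- `K` is an `L`-subspace
  let K' : Submodule L (VS φ) :=
    { carrier := (K : Set V)
      add_mem' := fun {a b} ha hb => K.add_mem ha hb
      zero_mem' := K.zero_mem
      smul_mem' := fun b v hv => by
        show φ b v ∈ K
        have hv' : y v = w • v := (hker v).1 hv
        rw [hker]
        have h4 : y (φ b v) = φ b (y v) := congrFun (congrArg DFunLike.coe (hall b)) v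
        rw [h4, hv']
        exact (φ b).map_smul w v }
  have h6 : finrank F L * finrank L K' = finrank F K := by
    rw [Module.finrank_mul_finrank F L K']
    rfl
  rw [hp] at h6
  omega

end Norm

section Mat

universe u v

variable {F : Type u} [Field F]

/-- Converse of `exists_SL`. -/
theorem exists_of_SL {n : ℕ} {L : Type v} [Field L] [Algebra F L]
    (φ : L →ₐ[F] Matrix (Fin n) (Fin n) F) (x P : Matrix.SpecialLinearGroup (Fin n) F)
    (h : P⁻¹ * x * P ∈ ((Cfsg.Geo.subalgebraNormalizer φ.range).comap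
        (Matrix.SpecialLinearGroup.toGL : Matrix.SpecialLinearGroup (Fin n) F →* GL (Fin n) F))) :
    ∃ (ψ : L →ₐ[F] Module.End F (Fin n → F)) (τ : L → L),
      ∀ a v, Matrix.toLin' (x : Matrix (Fin n) (Fin n) F) (ψ a v) =
        ψ (τ a) (Matrix.toLin' (x : Matrix (Fin n) (Fin n) F) v) := by
  have h1 : ∀ a, ∃ b, φ b = ((P⁻¹ * x * P : Matrix.SpecialLinearGroup (Fin n) F) : Matrix (Fin n) (Fin n) F) * φ a *
      (((P⁻¹ * x * P)⁻¹ : Matrix.SpecialLinearGroup (Fin n) F) : Matrix (Fin n) (Fin n) F) := by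
    intro a
    have h2 := (h (φ a)).1 ⟨a, rfl⟩
    obtain ⟨b, hb⟩ := h2
    exact ⟨b, hb⟩
  choose τ hτ using h1
  have hτ' : ∀ a, φ (τ a) * ((P⁻¹ * x * P : Matrix.SpecialLinearGroup (Fin n) F) : Matrix (Fin n) (Fin n) F) =
      ((P⁻¹ * x * P : Matrix.SpecialLinearGroup (Fin n) F) : Matrix (Fin n) (Fin n) F) * φ a := by
    intro a
    rw [hτ, mul_assoc, ← Matrix.SpecialLinearGroup.coe_mul, inv_mul_cancel]
    simp
  let e : (Fin n → F) ≃ₗ[F] (Fin n → F) := (Matrix.SpecialLinearGroup.toLin' P).symm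
  have he : ∀ v, e v = Matrix.toLin' (((P⁻¹ : Matrix.SpecialLinearGroup (Fin n) F)) : Matrix (Fin n) (Fin n) F) v :=
    fun v => by
      rw [LinearEquiv.symm_apply_eq]
      show v = Matrix.toLin' (P : Matrix (Fin n) (Fin n) F) _
      rw [← LinearMap.comp_apply, ← Matrix.toLin'_mul, ← Matrix.SpecialLinearGroup.coe_mul, mul_inv_cancel]
      simp
  have hes : ∀ v, e.symm v = Matrix.toLin' (P : Matrix (Fin n) (Fin n) F) v := fun v => rfl
  refine ⟨transport e ((Matrix.toLinAlgEquiv' (R := F) (n := Fin n)).toAlgHom.comp φ), τ, fun a v => ?_⟩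
  rw [transport_apply, transport_apply]
  have hh : ∀ (a : L) (v : Fin n → F), ((Matrix.toLinAlgEquiv' (R := F) (n := Fin n)).toAlgHom.comp φ) a v =
    Matrix.toLin' (φ a) v := fun a v => rfl
  rw [hh, hh]
  apply e.injective
  rw [e.apply_symm_apply]
  obtain ⟨v, rfl⟩ := e.symm.surjective v
  rw [e.apply_symm_apply, he, hes, hes, he]
  have h3 := congrArg (fun M => Matrix.toLin' M v) (hτ' a)
  simp only [Matrix.SpecialLinearGroup.coe_mul, Matrix.toLin'_mul, LinearMap.comp_apply] at h3
  exact h3.symm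

/-- The criterion: conjugacy in `SL_n` into the normaliser of a field subalgebra. -/
theorem iff_SL [Finite F] {n : ℕ} [Nonempty (Fin n)] {L : Type v} [Field L] [Algebra F L] [FiniteDimensional F L]
    (φ : L →ₐ[F] Matrix (Fin n) (Fin n) F) (x : Matrix.SpecialLinearGroup (Fin n) F) :
    (∃ P : Matrix.SpecialLinearGroup (Fin n) F, P⁻¹ * x * P ∈
      ((Cfsg.Geo.subalgebraNormalizer φ.range).comap
        (Matrix.SpecialLinearGroup.toGL : Matrix.SpecialLinearGroup (Fin n) F →* GL (Fin n) F))) ↔
    ∃ (ψ : L →ₐ[F] Module.End F (Fin n → F)) (τ : L → L),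
      ∀ a v, Matrix.toLin' (x : Matrix (Fin n) (Fin n) F) (ψ a v) =
        ψ (τ a) (Matrix.toLin' (x : Matrix (Fin n) (Fin n) F) v) := by
  constructor
  · rintro ⟨P, hP⟩
    exact exists_of_SL φ x P hP
  · rintro ⟨ψ, τ, h⟩
    exact exists_SL φ x ψ τ h

end Mat

section Small

variable {F V : Type*} [Field F] [AddCommGroup V] [Module F V] [FiniteDimensional F V]

omit [FiniteDimensional F V] in
theorem smul_normalises {L : Type*} [Field L] [Algebra F L] (x : Module.End F V) (w : F)
    (h : ∃ (ψ : L →ₐ[F] Module.End F V) (τ : L → L), ∀ a v, x (ψ a v) = ψ (τ a) (x v)) :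
    ∃ (ψ : L →ₐ[F] Module.End F V) (τ : L → L), ∀ a v, (w • x) (ψ a v) = ψ (τ a) ((w • x) v) := by
  obtain ⟨ψ, τ, h⟩ := h
  refine ⟨ψ, τ, fun a v => ?_⟩
  rw [LinearMap.smul_apply, LinearMap.smul_apply, h, map_smul]

theorem two_le_natDegree (x : Module.End F V) [Nontrivial V] (hx : ∀ c : F, x ≠ c • (1 : Module.End F V)) :
    2 ≤ (minpoly F x).natDegree := by
  have hi : IsIntegral F x := Algebra.IsIntegral.isIntegral x
  have h0 : 0 < (minpoly F x).natDegree := minpoly.natDegree_pos hi
  have h1 : (minpoly F x).natDegree ≠ 1 := by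
    intro h
    obtain ⟨c, hc⟩ := (minpoly.natDegree_eq_one_iff).1 h
    apply hx c
    rw [← hc, Algebra.algebraMap_eq_smul_one]
  omega

/-- A nonscalar element with `x² = 1` has minimal polynomial `X² - 1`. -/
theorem minpoly_of_sq_one [Nontrivial V] (x : Module.End F V) (hx : ∀ c : F, x ≠ c • (1 : Module.End F V))
    (h : x ^ 2 = 1) : minpoly F x = X ^ 2 - 1 := by
  have hi : IsIntegral F x := Algebra.IsIntegral.isIntegral x
  have hd : (X ^ 2 - 1 : F[X]).natDegree = 2 := natDegree_X_pow_sub_C (r := 1)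
  have hm : (X ^ 2 - 1 : F[X]).Monic := monic_X_pow_sub_C (1 : F) two_ne_zero
  have hdvd : minpoly F x ∣ X ^ 2 - 1 := minpoly.dvd F x (by simp [h])
  exact (Polynomial.eq_of_monic_of_dvd_of_natDegree_le (minpoly.monic hi) hm hdvd
    (by rw [hd]; exact two_le_natDegree x hx)).symm

omit [FiniteDimensional F V] in
/-- An element with `x^r = z`, `X^r - z` irreducible. -/
theorem minpoly_of_irreducible (x : Module.End F V) {r : ℕ} [Nontrivial V] {z : F} (hr : r ≠ 0)
    (h : x ^ r = z • (1 : Module.End F V)) (hirr : Irreducible (X ^ r - C z : F[X])) :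
    minpoly F x = X ^ r - C z := by
  refine (minpoly.eq_of_irreducible_of_monic hirr ?_ (monic_X_pow_sub_C z hr)).symm
  simp [h, Algebra.algebraMap_eq_smul_one]

theorem finrank_ker_of_coord {n : ℕ} (y : Module.End F (Fin n → F)) (i : Fin n)
    (h : ∀ v, v ∈ LinearMap.ker y ↔ v i = 0) : finrank F (LinearMap.ker y) + 1 = n := by
  have h1 : LinearMap.ker y = LinearMap.ker (LinearMap.proj i : (Fin n → F) →ₗ[F] F) := by
    ext v; rw [h]; rfl
  have h2 := LinearMap.finrank_range_add_finrank_ker (LinearMap.proj i : (Fin n → F) →ₗ[F] F)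
  have h3 : LinearMap.range (LinearMap.proj i : (Fin n → F) →ₗ[F] F) = ⊤ :=
    LinearMap.range_eq_top.2 (LinearMap.proj_surjective i)
  rw [h3, finrank_top, Module.finrank_self, Module.finrank_fin_fun] at h2
  rw [h1]; omega

/-- determinant of a map acting as scalars on complementary subspaces -/
theorem det_of_compl (x : Module.End F V) (W W' : Submodule F V) (hc : IsCompl W W') (c c' : F)
    (h : ∀ v ∈ W, x v = c • v) (h' : ∀ v ∈ W', x v = c' • v) :
    LinearMap.det x = c ^ finrank F W * c' ^ finrank F W' := by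
  let e := Submodule.prodEquivOfIsCompl W W' hc
  have hx : x = (e : (W × W') →ₗ[F] V) ∘ₗ
      (LinearMap.prodMap (c • (1 : Module.End F W)) (c' • (1 : Module.End F W'))) ∘ₗ (e.symm : V →ₗ[F] (W × W')) := by
    ext v
    obtain ⟨⟨w, w'⟩, rfl⟩ := e.surjective v
    simp only [LinearMap.comp_apply, LinearEquiv.coe_coe, LinearEquiv.symm_apply_apply]
    have h1 : ∀ p : W × W', e p = (p.1 : V) + (p.2 : V) := fun p => rfl
    rw [h1, h1, map_add, h _ w.2, h' _ w'.2]
    rfl
  rw [hx, LinearMap.det_conj, LinearMap.det_prodMap]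
  simp [LinearMap.det_smul]

end Small

end Cfsg.Agent.H954.FieldSub
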