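import Cfsg.Agent.H954.FieldSub2
set_option linter.all false

/-!
# Elements of prime order `r` in dimension `r` (helper954)
-/

set_option autoImplicit false

namespace Cfsg.Agent.H954.Singer

open Module Polynomial Cfsg.Agent.H954.FieldSub

section Irr

variable {F V : Type*} [Field F] [AddCommGroup V] [Module F V] [FiniteDimensional F V]

omit [FiniteDimensional F V] in
theorem natDegree_dvd_finrank (T : Module.End F V) (hirr : Irreducible (minpoly F T)) :
    (minpoly F T).natDegree ∣ finrank F V := by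
  have : Fact (Irreducible (minpoly F T)) := ⟨hirr⟩
  let χ : AdjoinRoot (minpoly F T) →ₐ[F] Module.End F V :=
    Ideal.Quotient.liftₐ (Ideal.span {minpoly F T}) (aeval T) (by
      intro a ha
      obtain ⟨b, rfl⟩ := Ideal.mem_span_singleton.1 ha
      rw [map_mul, minpoly.aeval, zero_mul])
  have h1 : finrank F (AdjoinRoot (minpoly F T)) = (minpoly F T).natDegree :=
    finrank_quotient_span_eq_natDegree
  rw [← h1]
  exact ⟨_, (finrank_VS χ).symm⟩

end Irr

section Order

variable {F : Type*} [Field F] [Fintype F] {p : ℕ} [hp : Fact p.Prime] [CharP F p] {q : ℕ}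

omit hp in
theorem card_eq (hq : Fintype.card F = q) : ∃ f : ℕ, 0 < f ∧ q = p ^ f := by
  obtain ⟨f, _, hf⟩ := FiniteField.card F p
  exact ⟨f, f.pos, hq ▸ hf⟩

theorem coprime_card (hq : Fintype.card F = q) {r : ℕ} (hr : r.Prime) (hrp : r ≠ p) : Nat.Coprime q r := by
  obtain ⟨f, _, rfl⟩ := card_eq (p := p) hq
  exact Nat.Coprime.pow_left f ((Nat.coprime_primes hp.out hr).2 (Ne.symm hrp))

/-- `Φ_r` is irreducible over `F_q` when `q` has order `r - 1` modulo `r`. -/
theorem irreducible_cyclotomic (hq : Fintype.card F = q) {r : ℕ} (hr : r.Prime) (hrp : r ≠ p)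
    (ho : orderOf (q : ZMod r) = r - 1) : Irreducible (cyclotomic r F) := by
  obtain ⟨f, _, hf⟩ := card_eq (p := p) hq
  have hcop : p.Coprime r := (Nat.coprime_primes hp.out hr).2 (Ne.symm hrp)
  refine Polynomial.irreducible_of_dvd_cyclotomic_of_natDegree (hq.trans hf) hcop dvd_rfl ?_
  rw [natDegree_cyclotomic, Nat.totient_prime hr, ← ho, hf, ← orderOf_units, ZMod.coe_unitOfCoprime]

variable {V : Type*} [AddCommGroup V] [Module F V] [FiniteDimensional F V]

/-- minimal polynomial of an element of order `r` in dimension `r`. -/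
theorem minpoly_of_order (hq : Fintype.card F = q) {r : ℕ} (hr : r.Prime) (hr3 : 3 ≤ r) (hrp : r ≠ p)
    (ho : orderOf (q : ZMod r) = r - 1) (hV : finrank F V = r) (T : Module.End F V) (hT : T ^ r = 1)
    (hT1 : T ≠ 1) : minpoly F T = X ^ r - 1 := by
  have hirr := irreducible_cyclotomic hq hr hrp ho
  have hm : (minpoly F T).Monic := minpoly.monic (Algebra.IsIntegral.isIntegral T)
  have hdvd : minpoly F T ∣ X ^ r - 1 := minpoly.dvd F T (by simp [hT])
  have hfac : (X ^ r - 1 : F[X]) = cyclotomic r F * (X - 1) := by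
    have : Fact r.Prime := ⟨hr⟩
    rw [Polynomial.cyclotomic_prime_mul_X_sub_one F r]
  have hne1 : (X - 1 : F[X]).natDegree = 1 := natDegree_X_sub_C 1
  have hX1 : (X - 1 : F[X]).Monic := monic_X_sub_C 1
  have hcd : cyclotomic r F ∣ minpoly F T := by
    by_contra hnd
    have hcop : IsCoprime (cyclotomic r F) (minpoly F T) := hirr.coprime_iff_not_dvd.2 hnd
    rw [hfac] at hdvd
    have h1 : minpoly F T ∣ X - 1 := hcop.symm.dvd_of_dvd_mul_left hdvd
    have h2 : aeval T (X - 1 : F[X]) = 0 := by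
      obtain ⟨c, hc⟩ := h1
      rw [hc, map_mul, minpoly.aeval, zero_mul]
    apply hT1
    simpa [sub_eq_zero] using h2
  obtain ⟨g, hg⟩ := hcd
  have hgX : g ∣ X - 1 := by
    rw [hg, hfac] at hdvd
    exact (mul_dvd_mul_iff_left hirr.ne_zero).1 hdvd
  have hgm : g.Monic := by
    have := hm
    rw [hg] at this
    exact (cyclotomic.monic r F).of_mul_monic_left this
  have hgdeg : g.natDegree ≤ 1 := by
    rw [← hne1]; exact natDegree_le_of_dvd hgX hX1.ne_zero
  have hg1 : g ≠ 1 := by
    rintro rfl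
    rw [mul_one] at hg
    have h3 := natDegree_dvd_finrank T (by rw [hg]; exact hirr)
    rw [hg, natDegree_cyclotomic, Nat.totient_prime hr, hV] at h3
    have h4 : (r - 1) ∣ 1 := by
      have : r = (r - 1) + 1 := by omega
      rw [this] at h3
      simpa using h3
    have := Nat.le_of_dvd one_pos h4
    omega
  have hgd : g.natDegree ≠ 0 := fun h => hg1 (hgm.natDegree_eq_zero.1 h)
  have hgX' : X - 1 = g := Polynomial.eq_of_monic_of_dvd_of_natDegree_le hgm hX1 hgX (by omega)
  rw [hg, ← hgX', hfac]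

/-- `z^r = 1` and `r ∤ q - 1` imply `z = 1`. -/
theorem eq_one_of_pow (hq : Fintype.card F = q) {r : ℕ} (hr : r.Prime) (h : ¬ r ∣ q - 1) {z : F}
    (hz : z ^ r = 1) : z = 1 := by
  have hz0 : z ≠ 0 := by
    rintro rfl
    rw [zero_pow hr.ne_zero] at hz
    exact zero_ne_one hz
  have h1 : z ^ (q - 1) = 1 := by rw [← hq]; exact FiniteField.pow_card_sub_one_eq_one z hz0
  have hcop : Nat.Coprime r (q - 1) := (Nat.Prime.coprime_iff_not_dvd hr).2 h
  have := pow_gcd_eq_one.2 ⟨hz, h1⟩
  rwa [hcop, pow_one] at this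

theorem order_eq_one (hq : Fintype.card F = q) {r : ℕ} (h : r ∣ q - 1) : orderOf (q : ZMod r) = 1 := by
  have hq1 : 1 < q := by rw [← hq]; exact Fintype.one_lt_card
  rw [orderOf_eq_one_iff]
  have h2 : ((q - 1 : ℕ) : ZMod r) = 0 := (ZMod.natCast_eq_zero_iff _ _).2 h
  rw [Nat.cast_sub hq1.le, sub_eq_zero] at h2
  rw [h2, Nat.cast_one]

end Order

section SL

variable {F : Type*} [Field F]

theorem toLin'_pow_of {n r : ℕ} {x : Matrix.SpecialLinearGroup (Fin n) F} {z : F}
    (hz : ((x ^ r : Matrix.SpecialLinearGroup (Fin n) F) : Matrix (Fin n) (Fin n) F) =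
      z • (1 : Matrix (Fin n) (Fin n) F)) :
    (Matrix.toLin' (x : Matrix (Fin n) (Fin n) F)) ^ r = z • (1 : Module.End F (Fin n → F)) := by
  rw [Matrix.SpecialLinearGroup.coe_pow] at hz
  have h1 := congrArg (Matrix.toLinAlgEquiv' (R := F) (n := Fin n)) hz
  rw [map_pow, map_smul, map_one] at h1
  exact h1

theorem toLin'_ne_of {n : ℕ} {x : Matrix.SpecialLinearGroup (Fin n) F}
    (hx : ∀ z : F, (x : Matrix (Fin n) (Fin n) F) ≠ z • (1 : Matrix (Fin n) (Fin n) F)) (c : F) :
    Matrix.toLin' (x : Matrix (Fin n) (Fin n) F) ≠ c • (1 : Module.End F (Fin n → F)) := by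
  intro hc
  apply hx c
  apply (Matrix.toLinAlgEquiv' (R := F) (n := Fin n)).injective
  rw [map_smul, map_one]
  exact hc

theorem det_pow_of {n r : ℕ} {x : Matrix.SpecialLinearGroup (Fin n) F} {z : F}
    (hz : ((x ^ r : Matrix.SpecialLinearGroup (Fin n) F) : Matrix (Fin n) (Fin n) F) =
      z • (1 : Matrix (Fin n) (Fin n) F)) : z ^ n = 1 := by
  have h1 := congrArg Matrix.det hz
  rw [Matrix.SpecialLinearGroup.det_coe, Matrix.det_smul, Matrix.det_one, mul_one, Fintype.card_fin] at h1
  exact h1.symm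

/-- Extension of an automorphism by the identity, as an element of `SL_n`. -/
theorem exists_ext {n m : ℕ} {W : Type*} [AddCommGroup W] [Module F W] [FiniteDimensional F W]
    (hW : finrank F W = m) (hmn : m ≤ n) (g : Module.End F W) (hdet : LinearMap.det g = 1) {r : ℕ}
    (hg : g ^ r = 1) (hg1 : g ≠ 1) :
    ∃ x : Matrix.SpecialLinearGroup (Fin n) F, x ^ r = 1 ∧ x ≠ 1 ∧
      n - m ≤ finrank F (LinearMap.ker (Matrix.toLin' (x : Matrix (Fin n) (Fin n) F) -
        (1 : F) • (1 : Module.End F (Fin n → F)))) := by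
  have hdim : finrank F (Fin n → F) = finrank F (W × (Fin (n - m) → F)) := by
    rw [Module.finrank_fin_fun, Module.finrank_prod, hW, Module.finrank_fin_fun]; omega
  let e : (Fin n → F) ≃ₗ[F] W × (Fin (n - m) → F) := LinearEquiv.ofFinrankEq _ _ hdim
  let G : Module.End F (W × (Fin (n - m) → F)) := LinearMap.prodMap g 1
  let T : Module.End F (Fin n → F) := e.symm.conj G
  have hTdef : ∀ v, T v = e.symm (G (e v)) := fun v => rfl
  have hG : G ^ r = 1 := by
    have : ∀ k, G ^ k = LinearMap.prodMap (g ^ k) 1 := by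
      intro k
      induction k with
      | zero => rw [pow_zero, pow_zero]; rfl
      | succ k ih => rw [pow_succ, pow_succ, ih]; rfl
    rw [this, hg]; rfl
  have hTr : T ^ r = 1 := by
    have h1 : ∀ k, T ^ k = e.symm.conj (G ^ k) := by
      intro k
      induction k with
      | zero => rw [pow_zero, pow_zero]; ext1 v; ext1; simp [LinearEquiv.conj_apply]
      | succ k ih => rw [pow_succ, pow_succ, ih]; ext1 v; ext1; simp [T, LinearEquiv.conj_apply]
    rw [h1, hG]
    ext1 v; ext1; simp [LinearEquiv.conj_apply]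
  have hTdet : LinearMap.det T = 1 := by
    have : LinearMap.det T = LinearMap.det G := LinearMap.det_conj G e.symm
    rw [this]
    have h2 : LinearMap.det G = LinearMap.det g * LinearMap.det (1 : Module.End F (Fin (n - m) → F)) :=
      LinearMap.det_prodMap _ _
    rw [h2, hdet, map_one, mul_one]
  have hTne : T ≠ 1 := by
    intro h
    apply hg1
    ext w
    have h1 : T (e.symm (w, 0)) = e.symm (w, 0) := by rw [h]; rfl
    rw [hTdef, e.apply_symm_apply] at h1
    have h2 := e.symm.injective h1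
    exact congrArg Prod.fst h2
  obtain ⟨x, hx⟩ : ∃ x : Matrix.SpecialLinearGroup (Fin n) F,
      Matrix.toLin' (x : Matrix (Fin n) (Fin n) F) = T :=
    ⟨⟨LinearMap.toMatrix' T, by rw [LinearMap.det_toMatrix', hTdet]⟩, Matrix.toLin'_toMatrix' _⟩
  have hinj : Function.Injective fun y : Matrix.SpecialLinearGroup (Fin n) F =>
      Matrix.toLin' (y : Matrix (Fin n) (Fin n) F) :=
    (Matrix.toLin' (R := F)).injective.comp Subtype.val_injective
  refine ⟨x, ?_, ?_, ?_⟩
  · apply hinj
    have h1 : ∀ k, Matrix.toLin' ((x ^ k : Matrix.SpecialLinearGroup (Fin n) F) : Matrix (Fin n) (Fin n) F) = T ^ k := by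
      intro k
      rw [Matrix.SpecialLinearGroup.coe_pow, ← hx]
      exact map_pow (Matrix.toLinAlgEquiv' (R := F) (n := Fin n)) _ _
    show Matrix.toLin' ((x ^ r : Matrix.SpecialLinearGroup (Fin n) F) : Matrix (Fin n) (Fin n) F) = _
    rw [h1, hTr]
    simp
    rfl
  · rintro rfl
    apply hTne
    rw [← hx]
    simp
    rfl
  · rw [hx]
    let ι : (Fin (n - m) → F) →ₗ[F] (Fin n → F) := (e.symm : _ →ₗ[F] (Fin n → F)) ∘ₗ LinearMap.inr F W _
    have hι : Function.Injective ι := e.symm.injective.comp LinearMap.inr_injective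
    have hr : LinearMap.range ι ≤ LinearMap.ker (T - (1 : F) • (1 : Module.End F (Fin n → F))) := by
      rintro _ ⟨u, rfl⟩
      rw [LinearMap.mem_ker, LinearMap.sub_apply, sub_eq_zero, one_smul]
      show T (e.symm (0, u)) = e.symm (0, u)
      rw [hTdef, e.apply_symm_apply]
      congr 1
      show (g 0, u) = (0, u)
      rw [map_zero]
    have h2 := Submodule.finrank_mono hr
    rw [LinearMap.finrank_range_of_inj hι, Module.finrank_fin_fun] at h2
    exact h2

theorem ne_smul_of {n : ℕ} {x : Matrix.SpecialLinearGroup (Fin n) F} (hx1 : x ≠ 1)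
    (hk : 0 < finrank F (LinearMap.ker (Matrix.toLin' (x : Matrix (Fin n) (Fin n) F) -
        (1 : F) • (1 : Module.End F (Fin n → F))))) (z : F) :
    (x : Matrix (Fin n) (Fin n) F) ≠ z • (1 : Matrix (Fin n) (Fin n) F) := by
  intro h
  obtain ⟨v, hv, hv0⟩ : ∃ v ∈ LinearMap.ker (Matrix.toLin' (x : Matrix (Fin n) (Fin n) F) -
        (1 : F) • (1 : Module.End F (Fin n → F))), v ≠ 0 := by
    by_contra hcon
    push Not at hcon
    rw [(Submodule.eq_bot_iff _).2 hcon, finrank_bot] at hk
    omega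
  rw [LinearMap.mem_ker, LinearMap.sub_apply, sub_eq_zero, one_smul] at hv
  have h1 : Matrix.toLin' (x : Matrix (Fin n) (Fin n) F) v = z • v := by
    rw [h]; simp
  have h2 : z • v = (1 : F) • v := by rw [one_smul, ← h1]; exact hv
  have h3 : z = 1 := smul_left_injective F hv0 h2
  apply hx1
  apply Subtype.ext
  rw [h, h3, one_smul]
  rfl

end SL

end Cfsg.Agent.H954.Singer
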